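import Cfsg.Agent.Lib.Helper35.ONFast.Data

set_option Elab.async false

namespace Cfsg.Agent.Lib.Helper35.ONFast

open Cfsg.Agent.Lib.Helper35

theorem e7c6 : allBelow (fun k => fe7 (Nat.add 22098 k)) 3683 = true := by decide +kernel
theorem e7c7 : allBelow (fun k => fe7 (Nat.add 25781 k)) 3683 = true := by decide +kernel
theorem e7c8 : allBelow (fun k => fe7 (Nat.add 29464 k)) 3683 = true := by decide +kernel
theorem e7c9 : allBelow (fun k => fe7 (Nat.add 33147 k)) 3683 = true := by decide +kernel
theorem e7c10 : allBelow (fun k => fe7 (Nat.add 36830 k)) 3683 = true := by decide +kernel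
theorem e7c11 : allBelow (fun k => fe7 (Nat.add 40513 k)) 3683 = true := by decide +kernel
theorem e7c12 : allBelow (fun k => fe7 (Nat.add 44196 k)) 3683 = true := by decide +kernel
theorem e7c13 : allBelow (fun k => fe7 (Nat.add 47879 k)) 3683 = true := by decide +kernel
theorem e7c14 : allBelow (fun k => fe7 (Nat.add 51562 k)) 3683 = true := by decide +kernel
theorem e7c15 : allBelow (fun k => fe7 (Nat.add 55245 k)) 3683 = true := by decide +kernel
theorem e7c16 : allBelow (fun k => fe7 (Nat.add 58928 k)) 3683 = true := by decide +kernel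
theorem e7c17 : allBelow (fun k => fe7 (Nat.add 62611 k)) 3683 = true := by decide +kernel
theorem e7c18 : allBelow (fun k => fe7 (Nat.add 66294 k)) 3683 = true := by decide +kernel
theorem e7c19 : allBelow (fun k => fe7 (Nat.add 69977 k)) 3683 = true := by decide +kernel
theorem e7c20 : allBelow (fun k => fe7 (Nat.add 73660 k)) 3683 = true := by decide +kernel
theorem e7c21 : allBelow (fun k => fe7 (Nat.add 77343 k)) 3683 = true := by decide +kernel
theorem e7c22 : allBelow (fun k => fe7 (Nat.add 81026 k)) 3683 = true := by decide +kernel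
theorem e7c23 : allBelow (fun k => fe7 (Nat.add 84709 k)) 3683 = true := by decide +kernel
theorem e7c24 : allBelow (fun k => fe7 (Nat.add 88392 k)) 3683 = true := by decide +kernel
theorem e7c25 : allBelow (fun k => fe7 (Nat.add 92075 k)) 3683 = true := by decide +kernel
theorem e7c26 : allBelow (fun k => fe7 (Nat.add 95758 k)) 3683 = true := by decide +kernel
theorem e7c27 : allBelow (fun k => fe7 (Nat.add 99441 k)) 3683 = true := by decide +kernel
theorem e7c28 : allBelow (fun k => fe7 (Nat.add 103124 k)) 3683 = true := by decide +kernel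
theorem e7c29 : allBelow (fun k => fe7 (Nat.add 106807 k)) 3683 = true := by decide +kernel
theorem e7c30 : allBelow (fun k => fe7 (Nat.add 110490 k)) 3683 = true := by decide +kernel
theorem e7c31 : allBelow (fun k => fe7 (Nat.add 114173 k)) 3683 = true := by decide +kernel
theorem e7c32 : allBelow (fun k => fe7 (Nat.add 117856 k)) 3683 = true := by decide +kernel
theorem e7c33 : allBelow (fun k => fe7 (Nat.add 121539 k)) 1221 = true := by decide +kernel

end Cfsg.Agent.Lib.Helper35.ONFast
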